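import Cfsg.Agent.H381.CC.Parts
import Cfsg.Agent.H439.CC.Defs

/-!
# S4884, PSI (helper381)

`∑_K coL ds K F(K) = F([1, N]) + 2 ∑_K b K F(K)` if `ds` consists of powers of two and `F K` depends only on the multisets
of the parts of `K` in the digits.
-/

set_option autoImplicit false

namespace Cfsg.Agent.H381.CC

open Finset Cfsg.Agent.H439.CC

universe v

/-! ### one digit -/

theorem coL_one {k : ℕ} {K : Finset ℕ} (hK : K ∈ cmp k) :
    coL [k] K = (-1) ^ ((K.filter fun x => x < k).card) * (mn K : ℤ) := by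
  rw [mem_cmp] at hK
  have hne : K.Nonempty := ⟨k, hK.2⟩
  have h1 : (K.filter fun x => k < x).image (fun x => x - k) = ∅ := by
    rw [image_eq_empty, filter_eq_empty_iff]
    intro x hx
    have := mem_Icc.1 (hK.1 hx)
    omega
  rw [coL, dif_pos hK.2, h1, coL, if_pos rfl, mul_one, mn, dif_pos hne]

/-- the general statement on class sums -/
theorem half {α β : Type*} [DecidableEq α] [DecidableEq β] (s : Finset α) (τ : α → β) (c : α → ℤ) {K₀ : α}
    (h₀ : K₀ ∈ s) (hc : ∀ t, (((∑ K ∈ s.filter (fun K => τ K = t), c K : ℤ)) : ZMod 2) = if t = τ K₀ then 1 else 0) :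
    ∃ b : α → ℤ, (∀ K, b K ≠ 0 → K ∈ s) ∧ ∀ (A : Type v) [AddCommGroup A] (F : α → A),
      (∀ K ∈ s, ∀ K' ∈ s, τ K = τ K' → F K = F K') →
        ∑ K ∈ s, c K • F K = F K₀ + (2 : ℤ) • ∑ K ∈ s, b K • F K := by
  classical
  -- the class sums
  have h1 : ∀ t, ∃ B : ℤ, ∑ K ∈ s.filter (fun K => τ K = t), c K = (if t = τ K₀ then 1 else 0) + 2 * B := by
    intro t
    have h2 := hc t
    have h3 : ((∑ K ∈ s.filter (fun K => τ K = t), c K - (if t = τ K₀ then 1 else 0) : ℤ) : ZMod 2) = 0 := by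
      rw [Int.cast_sub, h2]
      split_ifs <;> simp
    rw [ZMod.intCast_zmod_eq_zero_iff_dvd] at h3
    obtain ⟨B, hB⟩ := h3
    refine ⟨B, ?_⟩
    push_cast at hB
    linarith
  choose B hB using h1
  -- representatives
  let rep : β → α := fun t => if h : ∃ K ∈ s, τ K = t then h.choose else K₀
  have hrep : ∀ K ∈ s, rep (τ K) ∈ s ∧ τ (rep (τ K)) = τ K := by
    intro K hK
    have h : ∃ K' ∈ s, τ K' = τ K := ⟨K, hK, rfl⟩
    have e : rep (τ K) = h.choose := dif_pos h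
    rw [e]
    exact h.choose_spec
  refine ⟨fun K => if K ∈ s ∧ K = rep (τ K) then B (τ K) else 0, ?_, ?_⟩
  · intro K hK
    by_contra hcon
    exact hK (if_neg fun h => hcon h.1)
  intro A _ F hF
  -- both sides over the classes
  have h2 : ∑ K ∈ s, c K • F K = ∑ t ∈ s.image τ, (∑ K ∈ s.filter (fun K => τ K = t), c K) • F (rep t) := by
    rw [← sum_fiberwise_of_maps_to (fun K hK => mem_image_of_mem τ hK)]
    refine sum_congr rfl fun t ht => ?_
    rw [sum_smul]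
    refine sum_congr rfl fun K hK => ?_
    rw [mem_filter] at hK
    rw [← hK.2, hF K hK.1 _ (hrep K hK.1).1 (hrep K hK.1).2.symm]
  have h3 : ∑ K ∈ s, (if K ∈ s ∧ K = rep (τ K) then B (τ K) else 0) • F K = ∑ t ∈ s.image τ, B t • F (rep t) := by
    rw [← sum_fiberwise_of_maps_to (fun K hK => mem_image_of_mem τ hK)]
    refine sum_congr rfl fun t ht => ?_
    obtain ⟨K1, hK1, rfl⟩ := mem_image.1 ht
    obtain ⟨h4, h5⟩ := hrep K1 hK1
    rw [sum_eq_single_of_mem (rep (τ K1)) (mem_filter.2 ⟨h4, h5⟩)]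
    · rw [if_pos ⟨h4, by rw [h5]⟩, h5]
    · intro K hK hne
      rw [mem_filter] at hK
      rw [if_neg, zero_smul]
      rintro ⟨-, h6⟩
      rw [hK.2] at h6
      exact hne h6
  rw [h2, h3, smul_sum]
  have h4 : ∑ t ∈ s.image τ, (∑ K ∈ s.filter (fun K => τ K = t), c K) • F (rep t) =
      ∑ t ∈ s.image τ, ((if t = τ K₀ then (1 : ℤ) else 0) • F (rep t) + (2 : ℤ) • (B t • F (rep t))) := by
    refine sum_congr rfl fun t _ => ?_
    rw [hB, add_smul, mul_smul]
  rw [h4, sum_add_distrib]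
  congr 1
  rw [sum_eq_single_of_mem (τ K₀) (mem_image_of_mem τ h₀)]
  · rw [if_pos rfl, one_smul]
    exact hF _ (hrep K₀ h₀).1 _ h₀ (hrep K₀ h₀).2
  · intro t _ ht
    rw [if_neg ht, zero_smul]

/-- PSI for one digit -/
theorem psi_one (a : ℕ) : ∃ b : Finset ℕ → ℤ, (∀ K, b K ≠ 0 → K ∈ cmp (2 ^ a)) ∧
    ∀ (A : Type v) [AddCommGroup A] (F : Finset ℕ → A),
      (∀ K ∈ cmp (2 ^ a), ∀ K' ∈ cmp (2 ^ a), pts K = pts K' → F K = F K') →
        ∑ K ∈ cmp (2 ^ a), coL [2 ^ a] K • F K = F (Icc 1 (2 ^ a)) + (2 : ℤ) • ∑ K ∈ cmp (2 ^ a), b K • F K := by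
  classical
  have h1 : 1 ≤ 2 ^ a := Nat.one_le_two_pow
  refine half (cmp (2 ^ a)) pts (coL [2 ^ a]) (K₀ := Icc 1 (2 ^ a))
    (mem_cmp.2 ⟨subset_rfl, mem_Icc.2 ⟨h1, le_rfl⟩⟩) fun t => ?_
  rw [pts_Icc, ← class_sum a t, Int.cast_sum]
  refine sum_congr rfl fun K hK => ?_
  rw [mem_filter] at hK
  rw [coL_one hK.1]
  push_cast
  have h2 : (-1 : ZMod 2) = 1 := by decide
  rw [h2, one_pow, one_mul]

/-! ### several digits -/

/-- the part of `K` up to `k` -/
def lo (k : ℕ) (K : Finset ℕ) : Finset ℕ := K.filter (· ≤ k)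

/-- the part of `K` above `k`, shifted -/
def hi (k : ℕ) (K : Finset ℕ) : Finset ℕ := (K.filter fun x => k < x).image fun x => x - k

/-- the union of `K₁` and the shifted `K'` -/
def cmb (k : ℕ) (K₁ K' : Finset ℕ) : Finset ℕ := K₁ ∪ K'.image (· + k)

/-- `K`, `K'` contain the boundaries of the digits and have the same multisets of parts in all digits -/
def SameT : List ℕ → Finset ℕ → Finset ℕ → Prop
  | [], _, _ => True
  | k :: ds, K, K' => k ∈ K ∧ k ∈ K' ∧ pts (lo k K) = pts (lo k K') ∧ SameT ds (hi k K) (hi k K')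

theorem lo_cmb {k N : ℕ} {K₁ K' : Finset ℕ} (h1 : K₁ ⊆ Icc 1 k) (h2 : K' ⊆ Icc 1 N) : lo k (cmb k K₁ K') = K₁ := by
  ext x
  rw [lo, cmb, mem_filter, mem_union, mem_image]
  constructor
  · rintro ⟨h | ⟨y, hy, rfl⟩, h'⟩
    · exact h
    · have := mem_Icc.1 (h2 hy); omega
  · intro h
    exact ⟨Or.inl h, (mem_Icc.1 (h1 h)).2⟩

theorem hi_cmb {k N : ℕ} {K₁ K' : Finset ℕ} (h1 : K₁ ⊆ Icc 1 k) (h2 : K' ⊆ Icc 1 N) : hi k (cmb k K₁ K') = K' := by
  ext x
  rw [hi, cmb, mem_image]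
  constructor
  · rintro ⟨y, hy, rfl⟩
    rw [mem_filter, mem_union, mem_image] at hy
    obtain ⟨h | ⟨z, hz, rfl⟩, h'⟩ := hy
    · have := mem_Icc.1 (h1 h); omega
    · rw [Nat.add_sub_cancel]; exact hz
  · intro h
    refine ⟨x + k, ?_, Nat.add_sub_cancel _ _⟩
    rw [mem_filter, mem_union, mem_image]
    have := mem_Icc.1 (h2 h)
    exact ⟨Or.inr ⟨x, h, rfl⟩, by omega⟩

theorem cmb_lo_hi (k : ℕ) (K : Finset ℕ) : cmb k (lo k K) (hi k K) = K := by
  ext x
  rw [cmb, mem_union, lo, mem_filter, hi, mem_image]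
  constructor
  · rintro (h | ⟨y, hy, rfl⟩)
    · exact h.1
    · rw [mem_image] at hy
      obtain ⟨z, hz, rfl⟩ := hy
      rw [mem_filter] at hz
      have e : z - k + k = z := by omega
      rw [e]; exact hz.1
  · intro h
    rcases Nat.lt_or_ge k x with h' | h'
    · right
      refine ⟨x - k, mem_image.2 ⟨x, mem_filter.2 ⟨h, h'⟩, rfl⟩, by omega⟩
    · exact Or.inl ⟨h, h'⟩

theorem mem_cmb {k N : ℕ} {K₁ K' : Finset ℕ} (h2 : K' ⊆ Icc 1 N) : k ∈ cmb k K₁ K' ↔ k ∈ K₁ := by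
  rw [cmb, mem_union, mem_image]
  constructor
  · rintro (h | ⟨y, hy, h⟩)
    · exact h
    · have := mem_Icc.1 (h2 hy); omega
  · exact Or.inl

theorem cmb_subset {k N : ℕ} {K₁ K' : Finset ℕ} (h1 : K₁ ⊆ Icc 1 k) (h2 : K' ⊆ Icc 1 N) :
    cmb k K₁ K' ⊆ Icc 1 (k + N) := by
  intro x hx
  rw [cmb, mem_union, mem_image] at hx
  rw [mem_Icc]
  rcases hx with h | ⟨y, hy, rfl⟩
  · have := mem_Icc.1 (h1 h); omega
  · have := mem_Icc.1 (h2 hy); omega

theorem cmb_Icc (k N : ℕ) : cmb k (Icc 1 k) (Icc 1 N) = Icc 1 (k + N) := by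
  ext x
  rw [cmb, mem_union, mem_image, mem_Icc, mem_Icc]
  constructor
  · rintro (h | ⟨y, hy, rfl⟩)
    · omega
    · rw [mem_Icc] at hy; omega
  · intro h
    rcases Nat.lt_or_ge k x with h' | h'
    · exact Or.inr ⟨x - k, mem_Icc.2 (by omega), by omega⟩
    · exact Or.inl (by omega)

theorem coL_cmb {k N : ℕ} (ds : List ℕ) {K₁ K' : Finset ℕ} (h1 : K₁ ∈ cmp k) (h2 : K' ⊆ Icc 1 N) :
    coL (k :: ds) (cmb k K₁ K') = coL [k] K₁ * coL ds K' := by
  have h1' := mem_cmp.1 h1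
  have hne : K₁.Nonempty := ⟨k, h1'.2⟩
  have hk : k ∈ cmb k K₁ K' := (mem_cmb h2).2 h1'.2
  have e1 : (cmb k K₁ K').filter (fun x => x < k) = K₁.filter fun x => x < k := by
    ext x
    rw [mem_filter, mem_filter, cmb, mem_union, mem_image]
    constructor
    · rintro ⟨h | ⟨y, hy, rfl⟩, h'⟩
      · exact ⟨h, h'⟩
      · omega
    · rintro ⟨h, h'⟩
      exact ⟨Or.inl h, h'⟩
  have e2 : (cmb k K₁ K').min' ⟨k, hk⟩ = K₁.min' hne := by
    apply le_antisymm
    · exact min'_le _ _ (mem_union_left _ (min'_mem _ _))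
    · apply le_min'
      intro y hy
      rw [cmb, mem_union, mem_image] at hy
      rcases hy with h | ⟨z, -, rfl⟩
      · exact min'_le _ _ h
      · exact (min'_le _ _ h1'.2).trans (Nat.le_add_left _ _)
  have e3 : ((cmb k K₁ K').filter fun x => k < x).image (fun x => x - k) = K' := hi_cmb h1'.1 h2
  rw [coL_one h1, coL, dif_pos hk, e1, e2, e3, mn, dif_pos hne]

/-- the sum over the pairs -/
theorem sum_cmb {A : Type*} [AddCommGroup A] (k N : ℕ) (G : Finset ℕ → A) (hG : ∀ K, k ∉ K → G K = 0) :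
    ∑ K ∈ (Icc 1 (k + N)).powerset, G K = ∑ K₁ ∈ cmp k, ∑ K' ∈ (Icc 1 N).powerset, G (cmb k K₁ K') := by
  classical
  rw [← sum_product', ← sum_filter_add_sum_filter_not (Icc 1 (k + N)).powerset (fun K => k ∈ K)]
  have h0 : ∑ K ∈ (Icc 1 (k + N)).powerset with ¬ k ∈ K, G K = 0 :=
    sum_eq_zero fun K hK => hG K (mem_filter.1 hK).2
  rw [h0, add_zero]
  refine sum_bij' (fun K _ => (lo k K, hi k K)) (fun x _ => cmb k x.1 x.2) ?_ ?_ ?_ ?_ ?_
  · intro K hK
    rw [mem_filter, mem_powerset] at hK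
    rw [mem_product, mem_cmp, mem_powerset]
    refine ⟨⟨fun x hx => ?_, ?_⟩, fun x hx => ?_⟩
    · have h1 : x ∈ K ∧ x ≤ k := mem_filter.1 hx
      have := mem_Icc.1 (hK.1 h1.1)
      rw [mem_Icc]
      omega
    · exact mem_filter.2 ⟨hK.2, le_rfl⟩
    · obtain ⟨y, hy, rfl⟩ := mem_image.1 hx
      rw [mem_filter] at hy
      have := mem_Icc.1 (hK.1 hy.1)
      rw [mem_Icc]
      omega
  · intro x hx
    rw [mem_product, mem_cmp, mem_powerset] at hx
    rw [mem_filter, mem_powerset]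
    exact ⟨cmb_subset hx.1.1 hx.2, (mem_cmb hx.2).2 hx.1.2⟩
  · intro K _
    exact cmb_lo_hi k K
  · intro x hx
    rw [mem_product, mem_cmp, mem_powerset] at hx
    exact Prod.ext (lo_cmb hx.1.1 hx.2) (hi_cmb hx.1.1 hx.2)
  · intro K _
    exact congrArg G (cmb_lo_hi k K).symm

theorem sameT_Icc (ds : List ℕ) (hds : ∀ d ∈ ds, 1 ≤ d) : SameT ds (Icc 1 ds.sum) (Icc 1 ds.sum) := by
  induction ds with
  | nil => trivial
  | cons k ds ih =>
    have hk := hds k List.mem_cons_self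
    have e1 : Icc 1 (k :: ds).sum = cmb k (Icc 1 k) (Icc 1 ds.sum) := by rw [cmb_Icc, List.sum_cons]
    rw [e1]
    refine ⟨?_, ?_, rfl, ?_⟩
    · exact (mem_cmb subset_rfl).2 (mem_Icc.2 ⟨hk, le_rfl⟩)
    · exact (mem_cmb subset_rfl).2 (mem_Icc.2 ⟨hk, le_rfl⟩)
    · rw [hi_cmb subset_rfl subset_rfl]
      exact ih fun d hd => hds d (List.mem_cons_of_mem _ hd)

/-- **PSI** -/
theorem psi (ds : List ℕ) (hds : ∀ d ∈ ds, ∃ a, d = 2 ^ a) : ∃ b : Finset ℕ → ℤ, (∀ K, b K ≠ 0 → SameT ds K K) ∧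
    ∀ (A : Type v) [AddCommGroup A] (F : Finset ℕ → A),
      (∀ K ⊆ Icc 1 ds.sum, ∀ K' ⊆ Icc 1 ds.sum, SameT ds K K' → F K = F K') →
        ∑ K ∈ (Icc 1 ds.sum).powerset, coL ds K • F K =
          F (Icc 1 ds.sum) + (2 : ℤ) • ∑ K ∈ (Icc 1 ds.sum).powerset, b K • F K := by
  classical
  induction ds with
  | nil =>
    refine ⟨fun _ => 0, fun K h => absurd rfl h, ?_⟩
    intro A _ F _
    have e : (Icc 1 ([] : List ℕ).sum) = ∅ := rfl
    rw [e, powerset_empty, sum_singleton, sum_singleton, zero_smul, smul_zero, add_zero, coL, if_pos rfl, one_smul]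
  | cons k ds ih =>
    obtain ⟨b, hb, hbF⟩ := ih fun d hd => hds d (List.mem_cons_of_mem _ hd)
    obtain ⟨a, rfl⟩ := hds k List.mem_cons_self
    obtain ⟨b₁, hb₁, hb₁F⟩ := psi_one.{v} a
    set k := 2 ^ a with hk
    have hds1 : ∀ d ∈ ds, 1 ≤ d := by
      intro d hd
      obtain ⟨c, rfl⟩ := hds d (List.mem_cons_of_mem _ hd)
      exact Nat.one_le_two_pow
    set N := ds.sum with hN
    refine ⟨fun K => if k ∈ K then coL [k] (lo k K) * b (hi k K) + (if hi k K = Icc 1 N then b₁ (lo k K) else 0) else 0,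
      ?_, ?_⟩
    · intro K hK
      by_cases hkK : k ∈ K
      · simp only [if_pos hkK] at hK
        refine ⟨hkK, hkK, rfl, ?_⟩
        by_cases h1 : b (hi k K) = 0
        · rw [h1, mul_zero, zero_add] at hK
          by_cases h2 : hi k K = Icc 1 N
          · rw [h2]
            exact sameT_Icc ds hds1
          · exact absurd (if_neg h2) hK
        · exact hb _ h1
      · exact absurd (if_neg hkK) hK
    · intro A _ F hF
      rw [List.sum_cons]
      have hI : Icc 1 N ⊆ Icc 1 N := subset_rfl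
      -- the left side
      rw [sum_cmb k N (fun K => coL (k :: ds) K • F K) (by
        intro K hkK
        show coL (k :: ds) K • F K = 0
        rw [coL, dif_neg hkK, zero_smul])]
      have h1 : ∀ K₁ ∈ cmp k, ∑ K' ∈ (Icc 1 N).powerset, coL (k :: ds) (cmb k K₁ K') • F (cmb k K₁ K') =
          coL [k] K₁ • (F (cmb k K₁ (Icc 1 N)) + (2 : ℤ) • ∑ K' ∈ (Icc 1 N).powerset, b K' • F (cmb k K₁ K')) := by
        intro K₁ hK₁
        have hK₁' := mem_cmp.1 hK₁
        rw [← hbF A (fun K' => F (cmb k K₁ K')) ?_, smul_sum]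
        · refine sum_congr rfl fun K' hK' => ?_
          rw [coL_cmb ds hK₁ (mem_powerset.1 hK'), mul_smul]
        · intro K' hK' K'' hK'' hs
          refine hF _ ?_ _ ?_ ?_
          · rw [List.sum_cons]; exact cmb_subset hK₁'.1 hK'
          · rw [List.sum_cons]; exact cmb_subset hK₁'.1 hK''
          · refine ⟨(mem_cmb hK').2 hK₁'.2, (mem_cmb hK'').2 hK₁'.2, ?_, ?_⟩
            · rw [lo_cmb hK₁'.1 hK', lo_cmb hK₁'.1 hK'']
            · rw [hi_cmb hK₁'.1 hK', hi_cmb hK₁'.1 hK'']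
              exact hs
      rw [sum_congr rfl h1]
      simp only [smul_add, sum_add_distrib]
      -- the first digit
      rw [hb₁F A (fun K₁ => F (cmb k K₁ (Icc 1 N))) ?_, cmb_Icc]
      · rw [add_assoc]
        congr 1
        -- the right side
        rw [sum_cmb k N (fun K => (if k ∈ K then coL [k] (lo k K) * b (hi k K) +
          (if hi k K = Icc 1 N then b₁ (lo k K) else 0) else 0) • F K) (by
            intro K hkK
            show (if k ∈ K then _ else (0 : ℤ)) • F K = 0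
            rw [if_neg hkK, zero_smul])]
        rw [smul_sum, smul_sum, ← sum_add_distrib]
        refine sum_congr rfl fun K₁ hK₁ => ?_
        have hK₁' := mem_cmp.1 hK₁
        have h2 : ∀ K' ∈ (Icc 1 N).powerset, (if k ∈ cmb k K₁ K' then coL [k] (lo k (cmb k K₁ K')) * b (hi k (cmb k K₁ K')) +
            (if hi k (cmb k K₁ K') = Icc 1 N then b₁ (lo k (cmb k K₁ K')) else 0) else 0) • F (cmb k K₁ K') =
            coL [k] K₁ • (b K' • F (cmb k K₁ K')) + (if K' = Icc 1 N then b₁ K₁ • F (cmb k K₁ (Icc 1 N)) else 0) := by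
          intro K' hK'
          rw [mem_powerset] at hK'
          rw [if_pos ((mem_cmb hK').2 hK₁'.2), lo_cmb hK₁'.1 hK', hi_cmb hK₁'.1 hK', add_smul, mul_smul]
          congr 1
          split_ifs with h3
          · rw [h3]
          · rw [zero_smul]
        rw [sum_congr rfl h2, sum_add_distrib, sum_ite_eq' , if_pos (mem_powerset.2 hI), ← smul_sum, smul_add]
        rw [add_comm]
        congr 1
        rw [smul_comm]
      · intro K₁ hK₁ K₂ hK₂ hp
        have hK₁' := mem_cmp.1 hK₁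
        have hK₂' := mem_cmp.1 hK₂
        refine hF _ ?_ _ ?_ ?_
        · rw [List.sum_cons]; exact cmb_subset hK₁'.1 hI
        · rw [List.sum_cons]; exact cmb_subset hK₂'.1 hI
        · refine ⟨(mem_cmb hI).2 hK₁'.2, (mem_cmb hI).2 hK₂'.2, ?_, ?_⟩
          · rw [lo_cmb hK₁'.1 hI, lo_cmb hK₂'.1 hI]
            exact hp
          · rw [hi_cmb hK₁'.1 hI, hi_cmb hK₂'.1 hI]
            exact sameT_Icc ds hds1

end Cfsg.Agent.H381.CC
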