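import Cfsg.Agent.H381.CC.Psi

/-!
# S4884, PSI over `ℂ` (helper381)

The complex form of `H381.CC.psi`, for the digits of `N`.
-/

set_option autoImplicit false

namespace Cfsg.Agent.H381.CC

open Finset Cfsg.Agent.H439.CC

theorem dig_pow {N : ℕ} : ∀ d ∈ dig N, ∃ a, d = 2 ^ a := by
  intro d hd
  obtain ⟨a, -, rfl⟩ := List.mem_map.1 hd
  exact ⟨a, rfl⟩

theorem dig_sum (N : ℕ) : (dig N).sum = N := N.sum_map_two_pow_bitIndices

theorem sameT_refl : ∀ (ds : List ℕ) {K : Finset ℕ}, SameT ds K K → ds ≠ [] → K ⊆ Icc 1 ds.sum → ds.sum ∈ K := by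
  intro ds
  induction ds with
  | nil => intro K _ h; exact absurd rfl h
  | cons k ds ih =>
    intro K hK _ hs
    obtain ⟨h1, -, -, h2⟩ := hK
    by_cases he : ds = []
    · subst he
      simpa using h1
    · have h3 := ih h2 he ?_
      · obtain ⟨x, hx, e⟩ := mem_image.1 h3
        have hx' := mem_filter.1 hx
        have : x = (k :: ds).sum := by rw [List.sum_cons]; omega
        rw [← this]
        exact hx'.1
      · intro y hy
        obtain ⟨x, hx, rfl⟩ := mem_image.1 hy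
        have hx' := mem_filter.1 hx
        have h4 := mem_Icc.1 (hs hx'.1)
        rw [List.sum_cons] at h4
        exact mem_Icc.2 ⟨by omega, by omega⟩

/-- **PSI over `ℂ`** -/
theorem psiC (ds : List ℕ) (hds : ∀ d ∈ ds, ∃ a, d = 2 ^ a) : ∃ b : Finset ℕ → ℤ, (∀ K, b K ≠ 0 → SameT ds K K) ∧
    ∀ (F : Finset ℕ → ℂ),
      (∀ K ⊆ Icc 1 ds.sum, ∀ K' ⊆ Icc 1 ds.sum, SameT ds K K' → F K = F K') →
        ∑ K ∈ (Icc 1 ds.sum).powerset, (coL ds K : ℂ) * F K =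
          F (Icc 1 ds.sum) + 2 * ∑ K ∈ (Icc 1 ds.sum).powerset, (b K : ℂ) * F K := by
  obtain ⟨b, hb, h⟩ := psi.{0} ds hds
  refine ⟨b, hb, fun F hF => ?_⟩
  have := h ℂ F hF
  simpa only [zsmul_eq_mul, Int.cast_ofNat] using this

/-- **PSI over `ℂ`** for the digits of `N` -/
theorem psi_dig (N : ℕ) : ∃ b : Finset ℕ → ℤ, (∀ K, b K ≠ 0 → SameT (dig N) K K) ∧
    ∀ (F : Finset ℕ → ℂ),
      (∀ K ⊆ Icc 1 N, ∀ K' ⊆ Icc 1 N, SameT (dig N) K K' → F K = F K') →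
        ∑ K ∈ (Icc 1 N).powerset, (coL (dig N) K : ℂ) * F K =
          F (Icc 1 N) + 2 * ∑ K ∈ (Icc 1 N).powerset, (b K : ℂ) * F K := by
  have h := psiC (dig N) dig_pow
  rwa [dig_sum] at h

end Cfsg.Agent.H381.CC
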